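import Cfsg.Agent.Lib.FiKit.M11Tab.Arr

/-!
The check of the certificate and the bound for the order.
-/

set_option autoImplicit false

namespace Cfsg.Agent.Lib.FiKit.M11Tab

open Cfsg.Agent.Lib.TC Cfsg.Agent.Lib.FiKit.TwoGen

theorem K0_ok : allFrom Fk (nat_lit 0) (nat_lit 10000) = true := by decide +kernel

theorem K1_ok : allFrom Fk (nat_lit 10000) (nat_lit 10000) = true := by decide +kernel

theorem K2_ok : allFrom Fk (nat_lit 20000) (nat_lit 3292) = true := by decide +kernel

theorem P0_ok : allFrom Fp (nat_lit 0) (nat_lit 720) = true := by decide +kernel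

theorem doneK : Done Fk 23292 := by
  have h0 := Done.zero Fk
  have h1 : Done Fk 10000 := Done.step h0 K0_ok rfl
  have h2 : Done Fk 20000 := Done.step h1 K1_ok rfl
  have h3 : Done Fk 23292 := Done.step h2 K2_ok rfl
  exact h3

theorem doneP : Done Fp 720 := by
  have h0 := Done.zero Fp
  have h1 : Done Fp 720 := Done.step h0 P0_ok rfl
  exact h1

theorem hW : ∀ j, j < 7 → wordAt words j ∈ rels := by decide +kernel

theorem hS : ∀ j, j < 8 → 7 ≤ j → wordAt words j = wsub := by decide +kernel

theorem hLet : ∀ j, j < 8 → ∀ h ∈ wordAt words j, h < 4 := by decide +kernel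

theorem hN0 : aN 0 = 0 := by decide +kernel

theorem hAA : [0, 0] ∈ rels := by decide +kernel

theorem hPW : (List.replicate 11 wsub).flatten ∈ rels := by decide +kernel

/-- The bound for the order of a group generated by two elements satisfying the relators. -/
theorem bound (X : Type) [Group X] (x y : X) (hgen : Subgroup.closure ({x, y} : Set X) = ⊤)
    (hrel : ∀ w ∈ rels, evalWord (vv x y) w = 1) : Nat.card X ≠ 0 ∧ Nat.card X ≤ 11 * 720 := by
  have haa : x * x = 1 := by
    have h := hrel _ hAA
    simpa using h
  have hpow : (evalWord (vv x y) wsub) ^ 11 = 1 := by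
    rw [← evalWord_flatten_replicate]
    exact hrel _ hPW
  exact card_le_of_cert cert x y hgen haa wsub 11 720 (by norm_num) hpow rfl rfl
    (fun k hk => guard_zero 23292 _ k hk) hLet (fun j hj => hrel _ (hW j hj)) (by decide)
    hS (fun k hk => doneK k hk) aN tT (by decide) hN0 (fun i hi => doneP i hi)

end Cfsg.Agent.Lib.FiKit.M11Tab
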